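/-
# S4981 : every invariant character of the `p'`-part of the centralizer is good for some invariant character
-/
import Mathlib
import Cfsg.Agent.H723.QD.BrS
import Cfsg.Agent.S0145

set_option autoImplicit false
set_option linter.unusedSectionVars false
set_option linter.unusedVariables false

namespace Cfsg.Agent.H723.QD

open Cfsg
open scoped ComplexConjugate
open Cfsg.Agent.Blocks.Local
open Cfsg.Agent.Blocks.Basic (blockCoeff_def)
open Cfsg.Agent.Characters.Core
open Cfsg.Agent.H593.GlaubermanP (Inv actIrr charDegree_dvd)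

section

variable {K : Type*} [Group K] [Fintype K] {D : Type*} [Group D] [Fintype D]
variable {p : ℕ} [hp : Fact p.Prime] {P : Subgroup K} {ι : D →* K} {M : Ideal AlgInt}

/-- The size of the orbit is prime to `p`. -/
theorem BSet.card_orb (h : BSet p P ι) (β : IrrCharacter D) : ¬ p ∣ Nat.card (NOrb P ι β) := by
  classical
  let N := Subgroup.normalizer (P : Set K)
  choose e he using fun n : N => h.exists_aut n.2
  have he1 : e 1 = MulEquiv.refl D := MulEquiv.ext fun d => h.inj (by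
    rw [he]; simp)
  have hmul : ∀ n m : N, ∀ d, e (n * m) d = e n (e m d) := fun n m d => h.inj (by
    rw [he, he, he]; simp only [Subgroup.coe_mul]; group)
  let _ : MulAction N (IrrCharacter D) :=
    { smul := fun n β => cjIrr (e n⁻¹) β
      one_smul := fun β => Subtype.ext (funext fun d => by
        change (β : D → ℂ) (e 1⁻¹ d) = (β : D → ℂ) d
        rw [inv_one, he1]; rfl)
      mul_smul := fun n m β => Subtype.ext (funext fun d => by
        change (β : D → ℂ) (e (n * m)⁻¹ d) = (β : D → ℂ) (e m⁻¹ (e n⁻¹ d))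
        rw [mul_inv_rev, hmul]) }
  have hsm : ∀ (n : N) (β : IrrCharacter D), n • β = cjIrr (e n⁻¹) β := fun _ _ => rfl
  have horb : MulAction.orbit N β = NOrb P ι β := by
    ext γ
    constructor
    · rintro ⟨n, rfl⟩
      exact ⟨(n⁻¹ : N), (n⁻¹ : N).2, (h.nrel_iff (n⁻¹ : N).2 (he n⁻¹)).2 (hsm n β)⟩
    · rintro ⟨n, hn, h1⟩
      refine ⟨(⟨n, hn⟩ : N)⁻¹, ?_⟩
      have h2 := (h.nrel_iff hn (he ⟨n, hn⟩)).1 h1
      show (⟨n, hn⟩ : N)⁻¹ • β = γ
      rw [hsm, inv_inv, h2]
  have hPst : P.subgroupOf N ≤ MulAction.stabilizer N β := by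
    intro n hn
    rw [MulAction.mem_stabilizer_iff, hsm]
    have h1 : (n : K) ∈ P := hn
    have h2 : e n⁻¹ = MulEquiv.refl D := MulEquiv.ext fun d => h.inj (by
      rw [he]
      have h3 := Subgroup.mem_centralizer_iff.1 (h.cen d) (n : K)⁻¹ (inv_mem h1)
      rw [Subgroup.coe_inv, h3]
      simp)
    rw [h2]
    exact Subtype.ext (funext fun d => rfl)
  intro hdv
  have h1 : Nat.card (NOrb P ι β) = (MulAction.stabilizer N β).index := by
    rw [MulAction.index_stabilizer, horb]
    rfl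
  rw [h1] at hdv
  have h2 : (MulAction.stabilizer N β).index ∣ (P.subgroupOf N).index := Subgroup.index_dvd_of_le hPst
  have h3 : (P.subgroupOf N).index ∣ P.index := Subgroup.relIndex_dvd_index_of_le Subgroup.le_normalizer
  exact h.syl (hdv.trans (h2.trans h3))

/-- the multiplicity of the trivial character of `P` -/
noncomputable def mt (P : Subgroup K) (θ : K → ℂ) : ℕ :=
  letI := Fintype.ofFinite P
  mlt P.subtype θ (⟨1, isIrr_one⟩ : IrrCharacter P)

theorem mt_spec (P : Subgroup K) {θ : K → ℂ} (hθ : IsIrrCharacter K θ) :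
    (mt P θ : ℂ) = (Nat.card P : ℂ)⁻¹ * ∑ᶠ u : P, θ u := by
  classical
  let _ := Fintype.ofFinite P
  rw [finsum_eq_sum_of_fintype]
  have h1 := mlt_spec P.subtype hθ (⟨1, isIrr_one⟩ : IrrCharacter P)
  unfold mt
  rw [← h1, classInner_def]
  congr 1
  refine Finset.sum_congr rfl fun u _ => ?_
  simp

/-- **The counting formula.** -/
theorem BSet.count (h : BSet p P ι) (hD : ¬ p ∣ Nat.card D) [Fintype (IrrCharacter K)] (β : IrrCharacter D) :
    Nat.card D * ∑ θ : IrrCharacter K, mt P (θ : K → ℂ) *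
        (Nat.card (NOrb P ι β) * (mlt ι (θ : K → ℂ) β * charDegree (β : D → ℂ))) =
      P.index * (Nat.card (NOrb P ι β) * charDegree (β : D → ℂ) ^ 2) := by
  classical
  have hfin : Finite (IrrCharacter D) := finite_irr
  have hDf : Fintype (IrrCharacter D) := Fintype.ofFinite _
  let _ := Fintype.ofFinite P
  have hDne : (Nat.card D : ℂ) ≠ 0 := card_ne_zero_complex
  have hPne : (Nat.card P : ℂ) ≠ 0 := card_ne_zero_complex
  set O := NOrb P ι β with hO
  -- the sum over the characters of `K`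
  have key : ∀ d : D, ∑ θ : IrrCharacter K, (mt P (θ : K → ℂ) : ℂ) * (θ : K → ℂ) (ι d) =
      if d = 1 then (P.index : ℂ) else 0 := by
    intro d
    have h1 : ∀ θ : IrrCharacter K, (mt P (θ : K → ℂ) : ℂ) * (θ : K → ℂ) (ι d) =
        (Nat.card P : ℂ)⁻¹ * ∑ u : P, (θ : K → ℂ) u * conj ((θ : K → ℂ) (ι d)⁻¹) := by
      intro θ
      rw [mt_spec P θ.2, finsum_eq_sum_of_fintype, isCharacter_apply_inv (isIrr_isCharacter θ.2),
        Complex.conj_conj, ← Finset.sum_mul, mul_assoc]
    rw [Finset.sum_congr rfl (fun θ _ => h1 θ), ← Finset.mul_sum, Finset.sum_comm]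
    have h2 : ∀ u : P, ∑ θ : IrrCharacter K, (θ : K → ℂ) u * conj ((θ : K → ℂ) (ι d)⁻¹) =
        if d = 1 ∧ u = 1 then (Nat.card K : ℂ) else 0 := by
      intro u
      rw [Cfsg.Agent.S0145.sum_irr_mul_conj]
      by_cases hc : IsConj (u : K) (ι d)⁻¹
      · have h3 : orderOf (u : K) = orderOf (ι d)⁻¹ := by
          obtain ⟨c, hc⟩ := isConj_iff.1 hc
          rw [← hc]
          exact (orderOf_injective (MulAut.conj c).toMonoidHom (MulAut.conj c).injective (u : K)).symm
        have h4 : (Nat.card D).Coprime (orderOf (u : K)) := by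
          obtain ⟨k, hk⟩ := (IsPGroup.iff_orderOf.1 h.pg) u
          rw [Subgroup.orderOf_coe, hk]
          exact ((Nat.Prime.coprime_iff_not_dvd hp.out).2 hD).symm.pow_right k
        have h5 : orderOf (ι d)⁻¹ ∣ Nat.card D := by
          rw [orderOf_inv, orderOf_injective ι h.inj]
          exact orderOf_dvd_natCard d
        have h6 : orderOf (u : K) = 1 := by
          have := Nat.Coprime.eq_one_of_dvd h4.symm (h3 ▸ h5)
          exact this
        have h7 : (u : K) = 1 := orderOf_eq_one_iff.1 h6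
        have h8 : ι d = 1 := by
          rw [h6] at h3
          exact inv_eq_one.1 (orderOf_eq_one_iff.1 h3.symm)
        have h9 : d = 1 := h.inj (by rw [h8, map_one])
        have h10 : u = 1 := Subtype.ext h7
        subst h9 h10
        rw [if_pos hc, if_pos ⟨rfl, rfl⟩]
        congr 1
        refine Nat.card_congr (Equiv.subtypeUnivEquiv fun x => ?_)
        rw [Subgroup.mem_centralizer_iff]
        intro y hy
        rw [Set.mem_singleton_iff.1 hy]
        simp
      · rw [if_neg hc, if_neg]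
        rintro ⟨rfl, rfl⟩
        exact hc (by simp)
    rw [Finset.sum_congr rfl (fun u _ => h2 u)]
    by_cases hd : d = 1
    · subst hd
      simp only [true_and, if_true, Finset.sum_ite_eq', Finset.mem_univ]
      rw [← Subgroup.card_mul_index P, Nat.cast_mul]
      field_simp
    · simp [hd]
  have hsb : ∀ θ : IrrCharacter K, ((Nat.card O * (mlt ι (θ : K → ℂ) β * charDegree (β : D → ℂ)) : ℕ) : ℂ) =
      ∑ d, blockCoeff O d * (θ : K → ℂ) (ι d) := by
    intro θ
    rw [sum_blockCoeff θ.2, h.sum_orb (isIrr_isClassFunction θ.2)]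
  have h1 : (∑ θ : IrrCharacter K, mt P (θ : K → ℂ) *
      (Nat.card O * (mlt ι (θ : K → ℂ) β * charDegree (β : D → ℂ))) : ℕ) = ((P.index : ℂ) * blockCoeff O 1) := by
    rw [Nat.cast_sum]
    have h2 : ∀ θ : IrrCharacter K, ((mt P (θ : K → ℂ) *
        (Nat.card O * (mlt ι (θ : K → ℂ) β * charDegree (β : D → ℂ))) : ℕ) : ℂ) =
        ∑ d, blockCoeff O d * ((mt P (θ : K → ℂ) : ℂ) * (θ : K → ℂ) (ι d)) := by
      intro θ
      rw [Nat.cast_mul, hsb, Finset.mul_sum]
      exact Finset.sum_congr rfl fun d _ => by ring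
    rw [Finset.sum_congr rfl (fun θ _ => h2 θ), Finset.sum_comm]
    have h3 : ∀ d : D, ∑ θ : IrrCharacter K, blockCoeff O d * ((mt P (θ : K → ℂ) : ℂ) * (θ : K → ℂ) (ι d)) =
        if d = 1 then (P.index : ℂ) * blockCoeff O 1 else 0 := by
      intro d
      rw [← Finset.mul_sum, key]
      split_ifs with hd
      · rw [hd, mul_comm]
      · rw [mul_zero]
    rw [Finset.sum_congr rfl (fun d _ => h3 d)]
    simp
  have h4 : (Nat.card D : ℂ) * blockCoeff O 1 = ((Nat.card O * charDegree (β : D → ℂ) ^ 2 : ℕ) : ℂ) := by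
    rw [blockCoeff_def, ← mul_assoc, mul_inv_cancel₀ hDne, one_mul]
    have h5 : ∀ γ ∈ O, (γ : D → ℂ) 1 * conj ((γ : D → ℂ) 1) = ((charDegree (β : D → ℂ) ^ 2 : ℕ) : ℂ) := by
      intro γ hγ
      rw [Cfsg.Agent.Blocks.Basic.irr_one_eq_charDegree γ.2, h.deg_eq hγ]
      push_cast
      rw [map_natCast]
      ring
    rw [finsum_mem_congr rfl h5, finsum_mem_eq_toFinset_sum, Finset.sum_const, Set.toFinset_card,
      ← Nat.card_eq_fintype_card, nsmul_eq_mul]
    push_cast
    ring
  have h6 : ((Nat.card D * ∑ θ : IrrCharacter K, mt P (θ : K → ℂ) *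
        (Nat.card O * (mlt ι (θ : K → ℂ) β * charDegree (β : D → ℂ))) : ℕ) : ℂ) =
      ((P.index * (Nat.card O * charDegree (β : D → ℂ) ^ 2) : ℕ) : ℂ) := by
    rw [Nat.cast_mul, h1, Nat.cast_mul, ← h4]
    ring
  exact_mod_cast h6

/-- the sum over all characters of `D` -/
theorem BSet.degree (h : BSet p P ι) {θ : K → ℂ} (hθ : IsIrrCharacter K θ) (A : Set (IrrCharacter D)) :
    charDegree θ = ∑ᶠ β ∈ A, mlt ι θ β * charDegree (β : D → ℂ) +
      ∑ᶠ β ∈ Aᶜ, mlt ι θ β * charDegree (β : D → ℂ) := by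
  classical
  have hfin : Finite (IrrCharacter D) := finite_irr
  have : Fintype (IrrCharacter D) := Fintype.ofFinite _
  have h1 := Cfsg.Agent.H593.GlaubermanP.degree_eq (ι := ι) ⟨θ, hθ⟩ (mlt ι θ) (mlt_spec ι hθ)
  have h2 : charDegree θ = charDegree ((⟨θ, hθ⟩ : IrrCharacter K) : K → ℂ) := rfl
  rw [h2, h1, finsum_mem_eq_toFinset_sum, finsum_mem_eq_toFinset_sum, Set.toFinset_compl,
    Finset.sum_add_sum_compl]

/-- a good character forces the degree to be prime to `p` -/
theorem BSet.degree_of_good (h : BSet p P ι) (hM : IsPModular p M) (hD : ¬ p ∣ Nat.card D) {θ : K → ℂ}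
    (hθ : IsIrrCharacter K θ) {β : IrrCharacter D} (hg : Good p P ι θ β) : ¬ p ∣ charDegree θ := by
  intro hdv
  rw [h.degree hθ (NOrb P ι β)] at hdv
  have h1 := h.disj hM hD hθ (A := NOrb P ι β) (B := (NOrb P ι β)ᶜ) disjoint_compl_right
    (fun γ hγ γ' hr => h.trans hγ hr) (fun γ hγ γ' hr hγ' => hγ (h.trans hγ' (h.symm hr)))
  have h2 : ¬ p ∣ ∑ᶠ γ ∈ NOrb P ι β, mlt ι θ γ * charDegree (γ : D → ℂ) := by
    rw [h.sum_orb (isIrr_isClassFunction hθ)]
    exact hg
  rcases h1 with h1 | h1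
  · exact h2 h1
  · exact h2 ((Nat.dvd_add_left h1).1 hdv)

/-- **Existence.** An invariant character of `D` is good for an invariant character of degree prime to `p`. -/
theorem BSet.exists_char (h : BSet p P ι) (hM : IsPModular p M) (hD : ¬ p ∣ Nat.card D)
    {S : Type*} [Group S] [MulDistribMulAction S K] [MulDistribMulAction S D]
    (hS : IsPGroup p S) (hι : ∀ (s : S) (d : D), ι (s • d) = s • ι d)
    (hP : ∀ (s : S), ∀ u ∈ P, s • u ∈ P) (β : IrrCharacter D) (hβ : Inv S (β : D → ℂ)) :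
    ∃ θ : IrrCharacter K, ¬ p ∣ charDegree (θ : K → ℂ) ∧ Inv S (θ : K → ℂ) ∧ Good p P ι (θ : K → ℂ) β := by
  classical
  have hfin : Finite (IrrCharacter K) := finite_irr
  have : Fintype (IrrCharacter K) := Fintype.ofFinite _
  let _ : MulAction S (IrrCharacter K) := actIrr S
  have hact : ∀ (s : S) (θ : IrrCharacter K) (g : K), ((s • θ : IrrCharacter K) : K → ℂ) g = (θ : K → ℂ) (s⁻¹ • g) :=
    fun _ _ _ => rfl
  let f : IrrCharacter K → ℕ := fun θ => mt P (θ : K → ℂ) *
    (Nat.card (NOrb P ι β) * (mlt ι (θ : K → ℂ) β * charDegree (β : D → ℂ)))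
  -- invariance of the multiplicities
  have hmt : ∀ (s : S) (θ : IrrCharacter K), mt P ((s • θ : IrrCharacter K) : K → ℂ) = mt P (θ : K → ℂ) := by
    intro s θ
    let _ := Fintype.ofFinite P
    have h1 := mt_spec P (s • θ : IrrCharacter K).2
    have h2 := mt_spec P θ.2
    have h3 : ∑ᶠ u : P, ((s • θ : IrrCharacter K) : K → ℂ) u = ∑ᶠ u : P, (θ : K → ℂ) u := by
      rw [finsum_eq_sum_of_fintype, finsum_eq_sum_of_fintype]
      have hb : Function.Bijective (fun u : P => (⟨s⁻¹ • (u : K), hP s⁻¹ u u.2⟩ : P)) := by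
        rw [← Finite.injective_iff_bijective]
        intro u v huv
        have := congrArg Subtype.val huv
        exact Subtype.ext (MulAction.injective s⁻¹ this)
      exact Fintype.sum_bijective _ hb _ _ (fun u => hact s θ u)
    rw [h3, ← h2] at h1
    exact_mod_cast h1
  have hml : ∀ (s : S) (θ : IrrCharacter K), mlt ι ((s • θ : IrrCharacter K) : K → ℂ) β = mlt ι (θ : K → ℂ) β := by
    intro s θ
    have h1 := mlt_spec ι (s • θ : IrrCharacter K).2 β
    have h2 := mlt_spec ι θ.2 β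
    have h3 : classInner (((s • θ : IrrCharacter K) : K → ℂ) ∘ ι) (β : D → ℂ) =
        classInner ((θ : K → ℂ) ∘ ι) (β : D → ℂ) := by
      have h4 := Cfsg.Agent.H595.Solv.classInner_comp_equiv (MulDistribMulAction.toMulEquiv D s⁻¹)
        ((θ : K → ℂ) ∘ ι) (β : D → ℂ)
      rw [← h4]
      congr 1
      · funext d
        rw [Function.comp_apply, hact, ← hι]
        rfl
      · funext d
        rw [Function.comp_apply]
        exact (hβ s⁻¹ d).symm
    rw [h3, h2] at h1
    exact_mod_cast h1.symm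
  have hf : ∀ (s : S) (θ : IrrCharacter K), f (s • θ) = f θ := by
    intro s θ
    simp only [f, hmt, hml]
  -- some invariant character has a contribution prime to `p`
  have hex : ∃ θ : IrrCharacter K, (∀ s : S, s • θ = θ) ∧ ¬ p ∣ f θ := by
    by_contra hcon
    push Not at hcon
    obtain ⟨a, ha⟩ := Cfsg.Agent.Blocks.OrbitSum.sum_eq_sum_fixed_add_smul (p := p) (A := ℤ) hS
      (fun θ => (f θ : ℤ)) (fun s θ => by rw [hf])
    have h1 : (p : ℤ) ∣ ∑ θ, (f θ : ℤ) := by
      rw [ha]
      refine dvd_add (Finset.dvd_sum fun θ hθ => ?_) ⟨a, by rw [nsmul_eq_mul]⟩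
      rw [Int.natCast_dvd_natCast]
      exact hcon θ fun s => (Finset.mem_filter.1 hθ).2 s
    have h2 : p ∣ ∑ θ, f θ := by
      rw [← Nat.cast_sum] at h1
      exact Int.natCast_dvd_natCast.1 h1
    have h3 := h.count hD β
    have h4 : p ∣ P.index * (Nat.card (NOrb P ι β) * charDegree (β : D → ℂ) ^ 2) := by
      rw [← h3]
      exact h2.mul_left _
    have hdeg : ¬ p ∣ charDegree (β : D → ℂ) := fun hdv => hD (hdv.trans (charDegree_dvd β.2))
    rcases hp.out.dvd_mul.1 h4 with h5 | h5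
    · exact h.syl h5
    · rcases hp.out.dvd_mul.1 h5 with h6 | h6
      · exact h.card_orb β h6
      · exact hdeg (hp.out.dvd_of_dvd_pow h6)
  obtain ⟨θ, hθ, hfθ⟩ := hex
  have hg : Good p P ι (θ : K → ℂ) β := fun hdv => hfθ (hdv.mul_left _)
  refine ⟨θ, h.degree_of_good hM hD θ.2 hg, fun s x => ?_, hg⟩
  have h1 := congrFun (congrArg Subtype.val (hθ s⁻¹)) x
  have h2 := hact s⁻¹ θ x
  rw [inv_inv] at h2
  rw [← h2]
  exact h1

end

end Cfsg.Agent.H723.QD
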