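/-
# Glauberman's lemma: invariant points of an orbit
-/
import Mathlib
import Cfsg.Agent.H532.CopAct

set_option autoImplicit false
set_option linter.unusedSectionVars false
set_option linter.unusedVariables false

namespace Cfsg.Agent.H723.QD.Gl

section

variable {A : Type*} {G : Type*} [Group A] [Finite A] [Group G] [Finite G] [MulDistribMulAction A G]

/-- a fixed point of `P'` is the product of a fixed point of `A` and a fixed point of `P'` in `W` -/
theorem split (hcop : (Nat.card A).Coprime (Nat.card G)) (hsol : Group.IsSolvable A) (W : Subgroup G) [W.Normal]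
    (hW : ∀ a : A, ∀ x ∈ W, a • x ∈ W) (P' Q' : Subgroup A) (hPQ : P' ⊔ Q' = ⊤)
    (hQ : ∀ b ∈ Q', ∀ g : G, g⁻¹ * (b • g) ∈ W) {g : G} (hg : ∀ a ∈ P', a • g = g) :
    ∃ y u : G, g = y * u ∧ (∀ a : A, a • y = y) ∧ u ∈ W ∧ ∀ a ∈ P', a • u = u := by
  let T : Subgroup A :=
    { carrier := {a | g⁻¹ * (a • g) ∈ W}
      one_mem' := by
        show g⁻¹ * ((1 : A) • g) ∈ W
        rw [one_smul, inv_mul_cancel]; exact W.one_mem
      mul_mem' := fun {a b} ha hb => by
        show g⁻¹ * ((a * b) • g) ∈ W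
        have h1 : g⁻¹ * ((a * b) • g) = (g⁻¹ * (a • g)) * (a • (g⁻¹ * (b • g))) := by
          rw [mul_smul, smul_mul', smul_inv']; group
        rw [h1]
        exact W.mul_mem ha (hW a _ hb)
      inv_mem' := fun {a} ha => by
        show g⁻¹ * (a⁻¹ • g) ∈ W
        have h1 : g⁻¹ * (a⁻¹ • g) = a⁻¹ • (g⁻¹ * (a • g))⁻¹ := by
          rw [smul_inv', smul_mul', smul_inv', inv_smul_smul]; group
        rw [h1]
        exact hW a⁻¹ _ (W.inv_mem ha) }
  have hT : T = ⊤ := by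
    rw [eq_top_iff, ← hPQ]
    refine sup_le (fun a ha => ?_) (fun b hb => hQ b hb g)
    show g⁻¹ * (a • g) ∈ W
    rw [hg a ha, inv_mul_cancel]; exact W.one_mem
  have hall : ∀ a : A, g⁻¹ * (a • g) ∈ W := fun a => by
    have : a ∈ T := hT ▸ Subgroup.mem_top a
    exact this
  obtain ⟨y, hy, hgy⟩ := Cfsg.Agent.H532.CopAct.exists_fixed_lift hcop (Or.inl hsol) W hW g hall
  refine ⟨y, y⁻¹ * g, by group, hy, ?_, fun a ha => ?_⟩
  · have := W.inv_mem hgy
    rwa [mul_inv_rev, inv_inv] at this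
  · rw [smul_mul', smul_inv', hy, hg a ha]

/-- a `P'`-fixed point whose `G`-orbit is stable under `A` is fixed by `A` -/
theorem fixed (hcop : (Nat.card A).Coprime (Nat.card G)) (hsol : Group.IsSolvable A) (W : Subgroup G) [W.Normal]
    (hW : ∀ a : A, ∀ x ∈ W, a • x ∈ W) (P' Q' : Subgroup A) (hPQ : P' ⊔ Q' = ⊤)
    (hQ : ∀ b ∈ Q', ∀ g : G, g⁻¹ * (b • g) ∈ W) {X : Type*} [MulAction G X] [MulAction A X]
    (hcompat : ∀ (a : A) (g : G) (x : X), a • (g • x) = (a • g) • (a • x))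
    (hWX : ∀ w ∈ W, ∀ x : X, w • x = x) {η : X} (hη : ∀ a ∈ P', a • η = η)
    (horb : ∀ a : A, ∃ g : G, a • η = g • η) : ∀ a : A, a • η = η := by
  let Ω := {x : X // x ∈ MulAction.orbit G η}
  have hstab : ∀ (a : A) (x : X), x ∈ MulAction.orbit G η → a • x ∈ MulAction.orbit G η := by
    rintro a _ ⟨g, rfl⟩
    show a • (g • η) ∈ _
    obtain ⟨g', hg'⟩ := horb a
    rw [hcompat, hg', smul_smul]
    exact ⟨_, rfl⟩
  let actG : MulAction G Ω :=
    { smul := fun g x => ⟨g • x.1, by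
        obtain ⟨h, hh⟩ := x.2
        refine ⟨g * h, ?_⟩
        rw [← hh]
        exact mul_smul g h η⟩
      one_smul := fun x => Subtype.ext (one_smul _ x.1)
      mul_smul := fun g h x => Subtype.ext (mul_smul g h x.1) }
  let actA : MulAction A Ω :=
    { smul := fun a x => ⟨a • x.1, hstab a x.1 x.2⟩
      one_smul := fun x => Subtype.ext (one_smul _ x.1)
      mul_smul := fun a b x => Subtype.ext (mul_smul a b x.1) }
  have hne : Nonempty Ω := ⟨⟨η, MulAction.mem_orbit_self η⟩⟩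
  have htr : ∀ x y : Ω, ∃ g : G, g • x = y := by
    rintro ⟨_, ⟨g, rfl⟩⟩ ⟨_, ⟨h, rfl⟩⟩
    refine ⟨h * g⁻¹, Subtype.ext ?_⟩
    show (h * g⁻¹) • (g • η) = h • η
    rw [smul_smul]; simp
  obtain ⟨⟨η', hη'o⟩, hη'⟩ := (Cfsg.Agent.H532.CopAct.glauberman (A := A) (G := G) (Ω := Ω)
    (fun a g x => Subtype.ext (hcompat a g x.1)) hcop (Or.inl hsol) htr).1
  have hη'' : ∀ a : A, a • η' = η' := fun a => congrArg Subtype.val (hη' a)
  -- the fixed points of `P'`
  have hcop' : (Nat.card P').Coprime (Nat.card G) := Nat.Coprime.coprime_dvd_left (Subgroup.card_subgroup_dvd_card P') hcop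
  have hsol' : Group.IsSolvable P' := inferInstance
  let actP : MulAction P' Ω := MulAction.compHom Ω P'.subtype
  obtain ⟨g, hg, hgx⟩ := (Cfsg.Agent.H532.CopAct.glauberman (A := P') (G := G) (Ω := Ω)
    (fun a g x => Subtype.ext (hcompat a g x.1)) hcop' (Or.inl hsol') htr).2 ⟨η', hη'o⟩ ⟨η, MulAction.mem_orbit_self η⟩
    (fun a => hη' a) (fun a => Subtype.ext (hη a a.2))
  obtain ⟨y, u, hyu, hy, hu, -⟩ := split hcop hsol W hW P' Q' hPQ hQ (g := g) (fun a ha => hg ⟨a, ha⟩)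
  have h1 : g • η' = η := congrArg Subtype.val hgx
  rw [hyu, mul_smul, hWX u hu] at h1
  intro a
  rw [← h1, hcompat, hy, hη'']

end

end Cfsg.Agent.H723.QD.Gl
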